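import Cfsg.Agent.H373.Spec
import Cfsg.Agent.H373.CoverTwo
import Cfsg.Agent.H371.AlgLemma
import Cfsg.Agent.S0280

/-!
# Elements of order `(q ^ 5 + 1) / ((q + 1) (5, q + 1))` of `PSU 5 F q` (helper373)
-/

set_option autoImplicit false
set_option linter.unusedSectionVars false

namespace Cfsg.Agent.H373.ExistTen

open Cfsg Module Cfsg.Agent.LieClassical.HermBasic Cfsg.Agent.LieClassical.HermSiegel
  Cfsg.Agent.ClassicalGeometry.PSUAutBasic Cfsg.Agent.H373.Spec Cfsg.Agent.H373.CoverTwo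

universe u

variable {F : Type u} [Field F] [Fintype F] {q : ℕ}

theorem M_mul {q : ℕ} (hq : 1 ≤ q) : (q + 1) * M q = q ^ 5 + 1 := by
  have h : (((q + 1) * M q : ℕ) : ℤ) = ((q ^ 5 + 1 : ℕ) : ℤ) := by
    push_cast
    rw [M_cast hq]
    ring
  exact_mod_cast h

/-- `M q / (5, q + 1)` is greater than `1`. -/
theorem exists_prime_M {q : ℕ} (hq : 4 ≤ q) : ∃ s : ℕ, s.Prime ∧ s ≠ 5 ∧ s ∣ M q := by
  by_contra hno
  push Not at hno
  have h1 : 5 < M q := by
    rw [M]
    have : 3 ≤ q - 1 := by omega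
    nlinarith [Nat.one_le_pow 3 q (by omega)]
  -- `M q` is a power of `5`, not divisible by `25`
  have h2 : ¬ 25 ∣ M q := by
    intro h
    have h3 : (25 : ℤ) ∣ (q : ℤ) ^ 4 - q ^ 3 + q ^ 2 - q + 1 := by
      rw [← M_cast (by omega)]
      exact_mod_cast h
    have h4 : ((25 : ℕ) : ℤ) ∣ (q : ℤ) ^ 4 - q ^ 3 + q ^ 2 - q + 1 := h3
    rw [← ZMod.intCast_zmod_eq_zero_iff_dvd] at h4
    push_cast at h4
    generalize (q : ZMod 25) = x at h4
    revert h4
    revert x
    decide
  have h3 : ∀ s : ℕ, s.Prime → s ∣ M q → s = 5 := fun s hs hd => by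
    by_contra h5
    exact hno s hs h5 hd
  have h4 := Nat.eq_prime_pow_of_unique_prime_dvd (n := M q) (p := 5) (by omega) (fun {d} hd hd' => h3 d hd hd')
  rw [h4] at h1 h2
  set k := (M q).primeFactorsList.length with hk
  rcases k with _ | _ | k
  · norm_num at h1
  · norm_num at h1
  · apply h2
    exact ⟨5 ^ k, by rw [pow_add]; ring⟩

theorem card_dvd_PSU (hF : Fintype.card F = q ^ 2) {s : ℕ} (hs : s.Prime) (h5 : s ≠ 5) (hsM : s ∣ M q) :
    s ∣ Nat.card (PSU 5 F q) := by
  have hq1 := q_pos hF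
  have h := S0280.result hF 5 (by norm_num)
  have h1 : s ∣ q ^ (5 * (5 - 1) / 2) * ∏ i ∈ Finset.range 5, (if Even i then q ^ (i + 1) + 1 else q ^ (i + 1) - 1) := by
    refine Dvd.dvd.mul_left ?_ _
    have h2 : (q ^ 5 + 1) ∣ ∏ i ∈ Finset.range 5, (if Even i then q ^ (i + 1) + 1 else q ^ (i + 1) - 1) := by
      have := Finset.dvd_prod_of_mem (fun i => if Even i then q ^ (i + 1) + 1 else q ^ (i + 1) - 1)
        (show 4 ∈ Finset.range 5 by simp)
      have h4 : Even 4 := by decide
      simp only [h4, if_true] at this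
      exact this
    exact (hsM.trans (by rw [← M_mul hq1]; exact dvd_mul_left _ _)).trans h2
  rw [← h] at h1
  have hc := coprime_M hq1 hs h5 hsM
  have hnq : ¬ s ∣ q + 1 := (hs.coprime_iff_not_dvd).1 hc
  rcases hs.dvd_mul.1 h1 with h2 | h2
  · exact absurd (h2.trans (Nat.gcd_dvd_right _ _)) hnq
  · exact (hs.dvd_mul.1 h2).resolve_left hnq

/-- **An element of order `M q / (5, q + 1)`.** -/
theorem exists_order_ten [CharP F 2] (hF : Fintype.card F = q ^ 2) (hq : 4 ≤ q) (hqe : Even q) :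
    ∃ g : PSU 5 F q, orderOf g * Nat.gcd 5 (q + 1) = M q := by
  have hq1 := q_pos hF
  obtain ⟨s, hs, h5, hsM⟩ := exists_prime_M hq
  have := Fact.mk hs
  have hnq : ¬ s ∣ q + 1 := (hs.coprime_iff_not_dvd).1 (coprime_M hq1 hs h5 hsM)
  have hs2 : s ≠ 2 := by
    rintro rfl
    obtain ⟨k, hk⟩ := odd_M hqe
    omega
  obtain ⟨g₀, hg₀⟩ := exists_prime_orderOf_dvd_card' (G := PSU 5 F q) s (card_dvd_PSU hF hs h5 hsM)
  obtain ⟨x, y, hx, -, -⟩ := exists_lift_centralizer g₀ (by rw [hg₀])
  -- the linear map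
  let X : (Fin 5 → F) ≃ₗ[F] (Fin 5 → F) :=
    { toFun := act x
      invFun := act x⁻¹
      left_inv := fun v => act_inv_act x v
      right_inv := fun v => act_act_inv x v
      map_add' := act_add x
      map_smul' := act_smul x }
  have hXpow : ∀ (k : ℕ) v, (X ^ k) v = act (x ^ k) v := by
    intro k
    induction k with
    | zero => intro v; rw [pow_zero, pow_zero, act_one]; rfl
    | succ k ih =>
      intro v
      rw [pow_succ, pow_succ, act_mul, ← ih]
      rfl
  have hX1 : X ^ s = 1 := by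
    apply LinearEquiv.ext
    intro v
    rw [hXpow, ← hx, pow_orderOf_eq_one, act_one]
    rfl
  have hXne : X ≠ 1 := by
    intro h
    have h1 : x = 1 := by
      apply ext_act
      intro v
      have := LinearEquiv.congr_fun h v
      rw [act_one]
      exact this
    rw [h1, orderOf_one] at hx
    exact hs.one_lt.ne hx
  -- the order of `q` modulo `s`
  set t : ℤ := -(q : ℤ) with ht
  have ht5 : orderOf ((t : ℤ) : ZMod s) = 5 := by
    apply Tori.order_five hs h5
    have h1 : ((M q : ℤ) : ZMod s) = 0 := by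
      rw [ZMod.intCast_zmod_eq_zero_iff_dvd]
      exact_mod_cast hsM
    rw [M_cast hq1] at h1
    push_cast at h1
    rw [ht]
    push_cast
    linear_combination h1
  have hcardF : Nat.card F = q ^ 2 := by rw [Nat.card_eq_fintype_card, hF]
  have hdvd : ∀ d : ℕ, s ∣ Nat.card F ^ d - 1 ↔ 5 ∣ d := by
    intro d
    rw [hcardF, ← pow_mul, ← ZMod.natCast_eq_zero_iff, Nat.cast_sub (Nat.one_le_pow _ _ hq1)]
    push_cast
    have e : ((q : ZMod s)) ^ (2 * d) = ((t : ℤ) : ZMod s) ^ (2 * d) := by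
      rw [ht]
      push_cast
      rw [Even.neg_pow (even_two_mul d)]
    rw [sub_eq_zero, e, ← orderOf_dvd_iff_pow_eq_one, ht5]
    constructor
    · intro h
      exact (Nat.Coprime.dvd_of_dvd_mul_left (by norm_num) h)
    · intro h
      exact h.mul_left 2
  obtain ⟨g, hg, -, hgB⟩ := H371.Alg.exists_torus (V := Fin 5 → F) (LieClassical.GUOrder.frob hF) 1 (hermForm 5 F q)
    (fun u v w => herm_add_left u v w) (fun c v w => herm_smul_left c v w)
    (fun v w => by rw [one_mul]; exact herm_swap hF v w)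
    (fun w h => herm_nondeg hF fun v => herm_eq_zero_swap hF (h v))
    hs hs2 X hX1 hXne (fun v w => herm_act x v w) (by
      rw [hdvd, Module.finrank_fin_fun]) (fun d h0 hd => by
      rw [hdvd]
      rw [Module.finrank_fin_fun] at hd
      exact Nat.not_dvd_of_pos_of_lt h0 hd) (N := q ^ 5) (by
      rw [Nat.card_fun, hcardF, Nat.card_eq_fintype_card, Fintype.card_fin]; ring)
  -- into `SU`
  let G : Iso 5 F q := ⟨g, hgB⟩
  have hG : orderOf G = q ^ 5 + 1 := by rw [← hg]; exact (Subgroup.orderOf_coe G).symm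
  have hGN : G ^ (q + 1) ∈ (detH 5 F q).ker := by
    rw [MonoidHom.mem_ker, map_pow, detH_pow hF]
  set Y : SU 5 F q := nu 5 F q ⟨G ^ (q + 1), hGN⟩ with hY
  have hYo : orderOf Y = M q := by
    rw [hY, orderOf_injective _ nu_injective, ← Subgroup.orderOf_coe]
    show orderOf (G ^ (q + 1)) = M q
    rw [orderOf_pow_of_dvd (by omega) (by rw [hG, ← M_mul hq1]; exact dvd_mul_right _ _), hG, ← M_mul hq1,
      Nat.mul_div_cancel_left _ (by omega)]
  refine ⟨pr 5 F q Y, Nat.dvd_antisymm ?_ ?_⟩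
  · -- `s` divides the order of `pr Y`
    refine order_ten hF hqe hs h5 hsM _ ?_
    have h1 : orderOf Y ∣ orderOf (pr 5 F q Y) * Nat.card (Subgroup.center (SU 5 F q)) := by
      apply orderOf_dvd_of_pow_eq_one
      have h2 : Y ^ orderOf (pr 5 F q Y) ∈ Subgroup.center (SU 5 F q) := by
        rw [← pr_eq_one_iff, map_pow, pow_orderOf_eq_one]
      rw [pow_mul]
      have h3 := congrArg Subtype.val (pow_card_eq_one' (x := (⟨_, h2⟩ : Subgroup.center (SU 5 F q))))
      exact h3
    rw [hYo, S0279.result hF 5 (by norm_num)] at h1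
    exact (hs.dvd_mul.1 (hsM.trans h1)).resolve_right fun h => hnq (h.trans (Nat.gcd_dvd_right _ _))
  · have h1 : orderOf Y ∣ orderOf (pr 5 F q Y) * Nat.card (Subgroup.center (SU 5 F q)) := by
      apply orderOf_dvd_of_pow_eq_one
      have h2 : Y ^ orderOf (pr 5 F q Y) ∈ Subgroup.center (SU 5 F q) := by
        rw [← pr_eq_one_iff, map_pow, pow_orderOf_eq_one]
      rw [pow_mul]
      have h3 := congrArg Subtype.val (pow_card_eq_one' (x := (⟨_, h2⟩ : Subgroup.center (SU 5 F q))))
      exact h3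
    rw [hYo, S0279.result hF 5 (by norm_num)] at h1
    exact h1

end Cfsg.Agent.H373.ExistTen
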